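import Mathlib
import Cfsg.Agent.Lib.Gross.Section
import Cfsg.Agent.Lib.ShultGross.GLevel
import Cfsg.Agent.Lib.Solvable.PSeries3

/-!
# The action on the Frattini quotient of `O_s(G)`
-/

set_option autoImplicit false
set_option linter.unusedSectionVars false
set_option linter.style.haveILetI false

namespace Cfsg.Agent.Lib.Gross.FrattiniRep

open Module Cfsg Cfsg.Agent.Lib.Basic.PCore Cfsg.Agent.Lib.Gross.Section Cfsg.Agent.Lib.Ward
open scoped commutatorElement

universe u

variable {G X : Type u} [Group G] [Finite G] [Group X]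

theorem map_mem_pCore (σ : MulAut G) {s : ℕ} [Fact s.Prime] {u : G} (hu : u ∈ pCore s G) : σ u ∈ pCore s G :=
  (Subgroup.characteristic_iff_map_le.mp (pCore_char s G)) σ ⟨u, hu, rfl⟩

/-- The restriction of an automorphism to `O_s(G)`. -/
def resHom (σ : MulAut G) (s : ℕ) [Fact s.Prime] : pCore s G →* pCore s G where
  toFun u := ⟨σ u, map_mem_pCore σ u.2⟩
  map_one' := by
    apply Subtype.ext
    simp
  map_mul' u v := by
    apply Subtype.ext
    simp

theorem resHom_coe (σ : MulAut G) (s : ℕ) [Fact s.Prime] (u : pCore s G) : ((resHom σ s u : pCore s G) : G) = σ u := rfl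

/-- The restriction of an automorphism to `O_s(G)`, as an automorphism. -/
noncomputable def resEquiv (σ : MulAut G) (s : ℕ) [Fact s.Prime] : pCore s G ≃* pCore s G where
  toFun := resHom σ s
  invFun := resHom σ⁻¹ s
  left_inv u := by
    apply Subtype.ext
    simp [resHom_coe]
  right_inv u := by
    apply Subtype.ext
    simp [resHom_coe]
  map_mul' := map_mul _

theorem resHom_mem_frattini (σ : MulAut G) (s : ℕ) [Fact s.Prime] {a : pCore s G}
    (ha : a ∈ frattini (pCore s G)) : resHom σ s a ∈ frattini (pCore s G) := by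
  have hchar : (frattini (pCore s G)).Characteristic := inferInstance
  have h := hchar.fixed (resEquiv σ s).symm
  have h2 : resHom σ s a ∈ (frattini (pCore s G)).comap (resEquiv σ s).symm.toMonoidHom := by
    rw [Subgroup.mem_comap]
    have e : (resEquiv σ s).symm.toMonoidHom (resHom σ s a) = a := (resEquiv σ s).symm_apply_apply a
    rw [e]
    exact ha
  rwa [h] at h2

/-- **The representation on the Frattini quotient of `O_s(G)`.** -/
theorem exists_frattini_rep (φ : X →* MulAut G) (s : ℕ) [Fact s.Prime] :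
    ∃ (Z : Type u) (_ : AddCommGroup Z) (_ : Module (ZMod s) Z) (_ : Finite Z) (ψ : pCore s G →* Multiplicative Z)
      (π : X →* End (ZMod s) Z),
      Function.Surjective ψ ∧ ψ.ker = frattini (pCore s G) ∧
      ∀ x (u : pCore s G), Multiplicative.toAdd (ψ (resHom (φ x) s u)) = π x (Multiplicative.toAdd (ψ u)) := by
  classical
  obtain ⟨Z, iZ, mZ, ψ, hψ, hker⟩ :=
    Cfsg.Agent.Lib.PGroup.FrattiniBasis.exists_vector_space (p := s) (pCore_isPGroup s (G := G))
  have hfinZ : Finite Z := Cfsg.Agent.Lib.PGroup.FrattiniBasis.finite_of_surj hψ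
  obtain ⟨π, hπ⟩ := exists_rep (q := s) ψ hψ (fun x => resHom (φ x) s)
    (fun a => by
      apply Subtype.ext
      simp [resHom_coe])
    (fun x t a => by
      apply Subtype.ext
      simp [resHom_coe])
    (fun x a ha => by
      rw [hker] at ha ⊢
      exact resHom_mem_frattini _ s ha)
  exact ⟨Z, iZ, mZ, hfinZ, ψ, π, hψ, hker, hπ⟩

section props

variable {s : ℕ} [Fact s.Prime] {Z : Type*} [AddCommGroup Z] [Module (ZMod s) Z] [Finite Z]
variable {φ : X →* MulAut G} {ψ : pCore s G →* Multiplicative Z} {π : X →* End (ZMod s) Z}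

/-- An element without fixed points acts invertibly minus one. -/
theorem isUnit_of_fix (hψ : Function.Surjective ψ)
    (hrel : ∀ x (u : pCore s G), Multiplicative.toAdd (ψ (resHom (φ x) s u)) = π x (Multiplicative.toAdd (ψ u)))
    {a : X} (hfix : ∀ g : G, φ a g = g → g = 1) : IsUnit (π a - 1) := by
  classical
  haveI : Module.Finite (ZMod s) Z := Module.Finite.of_finite
  rw [Module.End.isUnit_iff]
  have hsurj : Function.Surjective ((π a - 1 : End (ZMod s) Z) : Z → Z) := by
    -- the map `u ↦ u⁻¹ σ(u)` is onto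
    have hinj : Function.Injective (fun u : pCore s G => u⁻¹ * resHom (φ a) s u) := by
      intro u v h
      have h1 : u⁻¹ * resHom (φ a) s u = v⁻¹ * resHom (φ a) s v := h
      have h2 : φ a ((v : G) * (u : G)⁻¹) = (v : G) * (u : G)⁻¹ := by
        have h3 : (u : G)⁻¹ * φ a u = (v : G)⁻¹ * φ a v := congrArg Subtype.val h1
        rw [map_mul, map_inv]
        have e : φ a (v : G) = v * ((u : G)⁻¹ * φ a u) := by rw [h3]; group
        rw [e]
        group
      have h4 := hfix _ h2
      exact (Subtype.ext (mul_inv_eq_one.mp h4)).symm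
    have hs := Finite.injective_iff_surjective.mp hinj
    intro v
    obtain ⟨t, ht⟩ := hψ (Multiplicative.ofAdd v)
    obtain ⟨u, hu⟩ := hs t
    refine ⟨Multiplicative.toAdd (ψ u), ?_⟩
    rw [LinearMap.sub_apply, Module.End.one_apply, ← hrel]
    have hu' : u⁻¹ * resHom (φ a) s u = t := hu
    rw [← hu', map_mul, map_inv] at ht
    have e : Multiplicative.toAdd ((ψ u)⁻¹ * ψ (resHom (φ a) s u)) =
        Multiplicative.toAdd (ψ (resHom (φ a) s u)) - Multiplicative.toAdd (ψ u) := by
      rw [toAdd_mul, toAdd_inv]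
      abel
    rw [← e, ht]
    rfl
  exact ⟨LinearMap.injective_iff_surjective.mpr hsurj, hsurj⟩

/-- The elements acting trivially on the Frattini quotient. -/
theorem mem_frattini_of_eq_one (hker : ψ.ker = frattini (pCore s G))
    (hrel : ∀ x (u : pCore s G), Multiplicative.toAdd (ψ (resHom (φ x) s u)) = π x (Multiplicative.toAdd (ψ u)))
    {x : X} (hx : π x = 1) (u : pCore s G) : resHom (φ x) s u * u⁻¹ ∈ frattini (pCore s G) := by
  rw [← hker, MonoidHom.mem_ker, map_mul, map_inv]
  have h1 := hrel x u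
  rw [hx, Module.End.one_apply] at h1
  have h2 : ψ (resHom (φ x) s u) = ψ u := h1
  rw [h2, mul_inv_cancel]

/-- The Fitting subgroup acts trivially on the Frattini quotient of `O_s(G)`. -/
theorem fitting_acts_trivially (hψ : Function.Surjective ψ)
    (hrel : ∀ x (u : pCore s G), Multiplicative.toAdd (ψ (resHom (φ x) s u)) = π x (Multiplicative.toAdd (ψ u)))
    (ι : G →* X) (hφι : ∀ f, φ (ι f) = MulAut.conj f) {f : G} (hf : f ∈ fittingSubgroup G) : π (ι f) = 1 := by
  classical
  have hle : fittingSubgroup G ≤ (π.comp ι).ker := by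
    rw [fittingSubgroup_eq_iSup_pCore]
    refine iSup_le ?_
    rintro ⟨t, ht⟩ f hf
    have htp := Nat.prime_of_mem_primeFactors ht
    rw [MonoidHom.mem_ker]
    show π (ι f) = 1
    ext v
    obtain ⟨u, hu⟩ := hψ (Multiplicative.ofAdd v)
    have hv : v = Multiplicative.toAdd (ψ u) := by rw [hu]; rfl
    rw [hv, Module.End.one_apply, ← hrel, hφι]
    by_cases hts : t = s
    · subst hts
      have e : resHom (MulAut.conj f) t u = ⟨f, hf⟩ * u * (⟨f, hf⟩ : pCore t G)⁻¹ := by
        apply Subtype.ext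
        simp [resHom_coe, MulAut.conj_apply]
      have hcm : ∀ a b : Multiplicative Z, a * b = b * a := fun a b => mul_comm a b
      have key : ψ (⟨f, hf⟩ * u * (⟨f, hf⟩ : pCore t G)⁻¹) = ψ u := by
        rw [map_mul, map_mul, map_inv, hcm (ψ ⟨f, hf⟩), mul_assoc, mul_inv_cancel, mul_one]
      rw [e, key]
    · haveI : Fact t.Prime := ⟨htp⟩
      have hc := Subgroup.commute_of_normal_of_disjoint _ _ (pCore_normal t G) (pCore_normal s G)
        (IsPGroup.disjoint_of_ne t s hts _ _ (pCore_isPGroup t) (pCore_isPGroup s)) f u hf u.2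
      have e : resHom (MulAut.conj f) s u = u := by
        apply Subtype.ext
        rw [resHom_coe, MulAut.conj_apply, hc.eq]
        group
      rw [e]
  exact hle hf

end props

/-- A subgroup containing two coprime powers of an element contains it. -/
theorem mem_of_two_pow_mem {S : Subgroup G} {g : G} {a b : ℕ} (ha : g ^ a ∈ S) (hb : g ^ b ∈ S) (hc : a.Coprime b) :
    g ∈ S := by
  have h1 : ((a.gcd b : ℕ) : ℤ) = a * a.gcdA b + b * a.gcdB b := Nat.gcd_eq_gcd_ab a b
  rw [hc.gcd_eq_one, Nat.cast_one] at h1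
  have h2 : g = (g ^ a) ^ (a.gcdA b) * (g ^ b) ^ (a.gcdB b) := by
    rw [← zpow_natCast, ← zpow_natCast, ← zpow_mul, ← zpow_mul, ← zpow_add, ← h1, zpow_one]
  rw [h2]
  exact mul_mem (zpow_mem ha _) (zpow_mem hb _)

/-- The elements of `G` acting trivially on `O_s / Φ(O_s)`. -/
def stabFrat (G : Type u) [Group G] [Finite G] (s : ℕ) [Fact s.Prime] : Subgroup G where
  carrier := {g | ∀ u ∈ pCore s G, g * u * g⁻¹ * u⁻¹ ∈ (frattini (pCore s G)).map (pCore s G).subtype}
  mul_mem' := by
    rintro g g' h2 h2' p hp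
    haveI : ((frattini (pCore s G)).map (pCore s G).subtype).Normal :=
      map_subtype_normal_of_characteristic _
    have e : g * g' * p * (g * g')⁻¹ * p⁻¹ = g * (g' * p * g'⁻¹ * p⁻¹) * g⁻¹ * (g * p * g⁻¹ * p⁻¹) := by
      group
    rw [e]
    exact mul_mem (Subgroup.Normal.conj_mem ‹_› _ (h2' p hp) g) (h2 p hp)
  one_mem' := by
    intro p _
    simp
  inv_mem' := by
    rintro g h2 p hp
    have hp' : g⁻¹ * p * g ∈ pCore s G := by
      have := (pCore_normal s G).conj_mem p hp g⁻¹
      simpa using this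
    have h3 := h2 _ hp'
    have e : g⁻¹ * p * g⁻¹⁻¹ * p⁻¹ = (g * (g⁻¹ * p * g) * g⁻¹ * (g⁻¹ * p * g)⁻¹)⁻¹ := by
      group
    rw [e]
    exact inv_mem h3

/-- **Elements of `Y` trivial on the Frattini quotients lie in the Fitting subgroup.** -/
theorem mem_fitting_of_frattini {q : ℕ} (hq : q.Prime) {Y : Subgroup G} (hYn : Y.Normal)
    (hYq : ∀ y ∈ Y, ∃ e, y ^ q ^ e ∈ fittingSubgroup G) {c : G} (hcY : c ∈ Y)
    (hs : ∀ (s : ℕ) (_ : Fact s.Prime), s ≠ q → c ∈ stabFrat G s) : c ∈ fittingSubgroup G := by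
  classical
  haveI : Fact q.Prime := ⟨hq⟩
  obtain ⟨a, m, hm, hord⟩ := Nat.exists_eq_pow_mul_and_not_dvd (n := orderOf c) (orderOf_pos c).ne' q hq.ne_one
  set w := c ^ m with hw
  have hwq : w ^ q ^ a = 1 := by
    rw [hw, ← pow_mul, mul_comm, ← hord]
    exact pow_orderOf_eq_one c
  have hwY : w ∈ Y := pow_mem hcY _
  have hwOff : w ∈ centOff G q := by
    intro s hsp hsq y hy
    haveI : Fact s.Prime := ⟨hsp⟩
    have hwstab : w ∈ stabFrat G s := pow_mem (hs s ⟨hsp⟩ hsq) _
    have hcop : (Nat.card (Subgroup.zpowers w)).Coprime s := by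
      rw [Nat.card_zpowers]
      have h1 : orderOf w ∣ q ^ a := orderOf_dvd_of_pow_eq_one hwq
      refine Nat.Coprime.coprime_dvd_left h1 ?_
      exact Nat.Coprime.pow_left _ ((Nat.coprime_primes hq hsp).mpr (Ne.symm hsq))
    have hnorm : Subgroup.zpowers w ≤ Subgroup.normalizer ((pCore s G : Subgroup G) : Set G) := by
      rw [Subgroup.normalizer_eq_top_iff.mpr (pCore_normal s G)]
      exact le_top
    have hcomm : ⁅pCore s G, Subgroup.zpowers w⁆ ≤ (frattini (pCore s G)).map (pCore s G).subtype := by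
      rw [Subgroup.commutator_le]
      intro p hp z hz
      have hzs : z ∈ stabFrat G s := by
        obtain ⟨k, rfl⟩ := hz
        exact zpow_mem hwstab k
      have h1 := hzs p hp
      have e : ⁅p, z⁆ = (z * p * z⁻¹ * p⁻¹)⁻¹ := by
        rw [commutatorElement_def]
        group
      rw [e]
      exact inv_mem h1
    have h1 := Cfsg.Agent.Lib.Solvable.PSeries3.le_centralizer_of_commutator_le_frattini
      (pCore_isPGroup s) hnorm hcop hcomm
    exact Subgroup.mem_centralizer_iff.mp (h1 hy) w (Subgroup.mem_zpowers w)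
  have hwF : c ^ m ∈ fittingSubgroup G :=
    Cfsg.Agent.Lib.ShultGross.mem_fitting_of_centOff hq hYn hYq hwY hwOff
  obtain ⟨e, he⟩ := hYq c hcY
  refine mem_of_two_pow_mem he hwF ?_
  exact Nat.Coprime.pow_left _ ((Nat.Prime.coprime_iff_not_dvd hq).mpr hm)

end Cfsg.Agent.Lib.Gross.FrattiniRep
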