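import Mathlib
import Cfsg.Agent.Lib.Gross.TheoremU
import Cfsg.Agent.Lib.Ward.Pure

/-!
# Theorem U for a representation on a vector space over a prime field, in quotient form
-/

set_option autoImplicit false
set_option linter.unusedSectionVars false
set_option linter.style.haveILetI false

namespace Cfsg.Agent.Lib.Gross.UQuot

open Module Cfsg Cfsg.Agent.Lib.Basic.PCore Cfsg.Agent.Lib.Gross.TheoremU

universe u

section nilp

variable {H : Type u} [Group H] [Finite H]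

/-- A normal subgroup whose elements centralise `O_q` when they are `q'`-elements is nilpotent. -/
theorem le_fitting_of_centralizing (hsol : Group.IsSolvable H) (T : Subgroup H) (hTn : T.Normal)
    (hA : ∀ q : ℕ, q.Prime → ∀ z ∈ T, (orderOf z).Coprime q → ∀ x ∈ pCore q H, z * x * z⁻¹ = x) :
    T ≤ fittingSubgroup H := by
  refine le_fittingSubgroup hTn ?_
  refine Cfsg.Agent.Lib.Ward.isNilpotent_of_centralize_pCore (H := T) inferInstance ?_
  rintro q r hq hr hqr x ⟨s, hs⟩ y hy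
  haveI : Fact q.Prime := ⟨hq⟩
  haveI := hTn
  have hmapn : ((pCore q T).map T.subtype).Normal :=
    map_subtype_normal_of_characteristic (N := T) (pCore q T) (hK := pCore_char q T)
  have hle : (pCore q T).map T.subtype ≤ pCore q H := le_pCore hmapn ((pCore_isPGroup q).map _)
  have hy' : (y : H) ∈ pCore q H := hle ⟨y, hy, rfl⟩
  have hc : (orderOf (x : H)).Coprime q := by
    rw [Subgroup.orderOf_coe, hs]
    exact Nat.Coprime.pow_left _ ((Nat.coprime_primes hr hq).mpr (Ne.symm hqr))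
  have h1 := hA q hq x x.2 hc y hy'
  apply Subtype.ext
  show (x : H) * y = y * x
  calc (x : H) * y = ((x : H) * y * (x : H)⁻¹) * x := by group
    _ = y * x := by rw [h1]

end nilp

variable {X : Type u} [Group X] [Finite X]

/-- The group generated by the `2 ^ (n - 1)`-th powers. -/
def lastN (𝒜 : Set X) (n : ℕ) : Subgroup X := Subgroup.closure {y | ∃ a ∈ 𝒜, y = a ^ 2 ^ (n - 1)}

/-- The group generated by its elements of odd order. -/
def oddN (𝒜 : Set X) (n : ℕ) : Subgroup X := Subgroup.closure {g | g ∈ lastN 𝒜 n ∧ Odd (orderOf g)}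

theorem lastN_conj {𝒜 : Set X} (h : ∀ g, ∀ a ∈ 𝒜, g * a * g⁻¹ ∈ 𝒜) (n : ℕ) (g : X) {y : X} (hy : y ∈ lastN 𝒜 n) :
    g * y * g⁻¹ ∈ lastN 𝒜 n := by
  refine conj_mem_closure ?_ g hy
  rintro g _ ⟨a, ha, rfl⟩
  exact ⟨g * a * g⁻¹, h g a ha, conj_pow.symm⟩

theorem oddN_conj {𝒜 : Set X} (h : ∀ g, ∀ a ∈ 𝒜, g * a * g⁻¹ ∈ 𝒜) (n : ℕ) (g : X) {y : X} (hy : y ∈ oddN 𝒜 n) :
    g * y * g⁻¹ ∈ oddN 𝒜 n := by
  refine conj_mem_closure ?_ g hy
  rintro g x ⟨h1, h2⟩
  refine ⟨lastN_conj h n g h1, ?_⟩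
  have e : g * x * g⁻¹ = MulAut.conj g x := rfl
  rw [e, MulEquiv.orderOf_eq]
  exact h2

/-- **Theorem U over a prime field.** -/
theorem theorem_u_quot (hsol : Group.IsSolvable X) {s q : ℕ} [hs : Fact s.Prime] [hq : Fact q.Prime] (hqs : q ≠ s)
    (hq2 : q ≠ 2) {Z : Type*} [AddCommGroup Z] [Module (ZMod s) Z] [Finite Z] (π : X →* End (ZMod s) Z)
    (𝒜 : Set X) (hconj : ∀ g, ∀ a ∈ 𝒜, g * a * g⁻¹ ∈ 𝒜) {n : ℕ} (hn : 1 ≤ n) (hpow : ∀ a ∈ 𝒜, a ^ 2 ^ n = 1)
    (hunit : ∀ a ∈ 𝒜, IsUnit (π a - 1)) :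
    ∀ z ∈ oddN 𝒜 n, (orderOf z).Coprime q → ∀ x : X, (x : X ⧸ π.ker) ∈ pCore q (X ⧸ π.ker) →
      π (z * x * z⁻¹ * x⁻¹) = 1 := by
  classical
  haveI : Fact (Nat.Prime 2) := ⟨Nat.prime_two⟩
  haveI : Module.Finite (ZMod s) Z := Module.Finite.of_finite
  let K := AlgebraicClosure (ZMod s)
  let W := TensorProduct (ZMod s) K Z
  let πT : (X ⧸ π.ker) →* End (ZMod s) Z := QuotientGroup.lift π.ker π (fun x hx => hx)
  have hπT : ∀ g : X, πT (g : X ⧸ π.ker) = π g := fun g => rfl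
  have hπTinj : Function.Injective πT := by
    intro x x' h
    obtain ⟨g, rfl⟩ := QuotientGroup.mk_surjective x
    obtain ⟨g', rfl⟩ := QuotientGroup.mk_surjective x'
    rw [hπT, hπT] at h
    rw [QuotientGroup.eq]
    show π (g⁻¹ * g') = 1
    rw [map_mul π, ← h, ← map_mul π, inv_mul_cancel, map_one]
  let ρ : (X ⧸ π.ker) →* End K W := ((Module.End.baseChangeHom (ZMod s) K Z).toMonoidHom).comp πT
  have hρ : Function.Injective ρ := by
    intro x x' hxx
    apply hπTinj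
    exact LinearMap.baseChangeHom_injective (ZMod s) Z K hxx
  have hqK : (q : K) ≠ 0 :=
    Cfsg.Agent.Lib.Gross.LemmaZ.cast_ne_zero_of_ne hs.out hq.out hqs (CharP.cast_eq_zero K s)
  let f : X →* X ⧸ π.ker := QuotientGroup.mk' π.ker
  have hf : Function.Surjective f := QuotientGroup.mk'_surjective _
  have hconjs : ∀ g, ∀ a ∈ f '' 𝒜, g * a * g⁻¹ ∈ f '' 𝒜 := by
    rintro g _ ⟨a, ha, rfl⟩
    obtain ⟨g, rfl⟩ := hf g
    exact ⟨g * a * g⁻¹, hconj g a ha, by simp⟩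
  have h𝒜s : ∀ a ∈ f '' 𝒜, ∀ m : ℕ, 1 ≤ m → orderOf a = 2 ^ m →
      ∀ v, ∑ i ∈ Finset.range (2 ^ m), ρ (a ^ i) v = 0 := by
    rintro _ ⟨a, ha, rfl⟩ m hm hord v
    have hu : IsUnit (ρ (f a) - 1) := by
      have e : ρ (f a) - 1 = Module.End.baseChangeHom (ZMod s) K Z (π a - 1) := by
        rw [map_sub, map_one]
        rfl
      rw [e]
      exact (hunit a ha).map _
    have h1 : (f a) ^ 2 ^ m = 1 := by
      rw [← hord]
      exact pow_orderOf_eq_one _
    have h2 : (ρ (f a) - 1) * ∑ i ∈ Finset.range (2 ^ m), (ρ (f a)) ^ i = 0 := by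
      have h0 := mul_geom_sum (ρ (f a)) (2 ^ m)
      have e : (ρ (f a)) ^ 2 ^ m = 1 := by rw [← map_pow, h1, map_one]
      rw [e, sub_self] at h0
      exact h0
    have h3 := (hu.mul_right_eq_zero).mp h2
    have h4 := LinearMap.congr_fun h3 v
    simpa [LinearMap.sum_apply, map_pow] using h4
  have hU := theorem_u (K := K) (V := W) (inferInstance) ρ hρ hq2 hqK (f '' 𝒜) hconjs h𝒜s
  have hL : lastN 𝒜 n ≤ (lastD (f '' 𝒜)).comap f := by
    rw [lastN, Subgroup.closure_le]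
    rintro _ ⟨a, ha, rfl⟩
    show f (a ^ 2 ^ (n - 1)) ∈ lastD (f '' 𝒜)
    have h1 : (f a) ^ 2 ^ n = 1 := by
      rw [← map_pow, hpow a ha, map_one]
    obtain ⟨m, hm, hord⟩ := (Nat.dvd_prime_pow Nat.prime_two).1 (orderOf_dvd_of_pow_eq_one h1)
    rw [map_pow]
    rcases Nat.lt_or_ge m n with hlt | hge
    · have h2 : (f a) ^ 2 ^ (n - 1) = 1 := by
        apply orderOf_dvd_iff_pow_eq_one.1
        rw [hord]
        exact pow_dvd_pow 2 (by omega)
      rw [h2]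
      exact one_mem _
    · have hmn : m = n := le_antisymm hm hge
      subst hmn
      exact Subgroup.subset_closure ⟨f a, ⟨a, ha, rfl⟩, m, hn, hord, rfl⟩
  have hO : oddN 𝒜 n ≤ (oddD (f '' 𝒜)).comap f := by
    rw [oddN, Subgroup.closure_le]
    rintro g ⟨hg, hodd⟩
    refine Subgroup.subset_closure ⟨hL hg, ?_⟩
    exact Odd.of_dvd_nat hodd (orderOf_map_dvd f g)
  intro z hz hzc x hx
  have h1 := hU (f z) (hO hz) (Nat.Coprime.coprime_dvd_left (orderOf_map_dvd f z) hzc) (f x) hx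
  have h2 : f (z * x * z⁻¹ * x⁻¹) = 1 := by
    rw [map_mul, map_mul, map_mul, map_inv, map_inv, h1, mul_inv_cancel]
  exact (QuotientGroup.eq_one_iff _).mp h2

end Cfsg.Agent.Lib.Gross.UQuot
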