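import Mathlib
import Cfsg.Agent.Lib.Gross.UQuot
import Cfsg.Agent.Lib.Gross.FrattiniRep
import Cfsg.Agent.Lib.ShultGross.Top

/-!
# Fixed point free automorphisms of order `2 ^ n`: the last power is trivial modulo `F_2(G)`
-/

set_option autoImplicit false
set_option linter.unusedSectionVars false
set_option linter.style.haveILetI false

namespace Cfsg.Agent.Lib.Gross.FpfMain

open Module Cfsg Cfsg.Agent.Lib.Basic.PCore Cfsg.Agent.Lib.Gross.UQuot Cfsg.Agent.Lib.Gross.FrattiniRep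
open Cfsg.Agent.Lib.ShultGross

universe u

variable {G X : Type u} [Group G] [Finite G] [Group X] [Finite X]

/-- The preimage of `O_q(G / F(G))`. -/
def preCore (G : Type u) [Group G] (q : ℕ) : Subgroup G :=
  (pCore q (G ⧸ fittingSubgroup G)).comap (QuotientGroup.mk' (fittingSubgroup G))

theorem mem_preCore {q : ℕ} {y : G} : y ∈ preCore G q ↔ (y : G ⧸ fittingSubgroup G) ∈ pCore q (G ⧸ fittingSubgroup G) :=
  Iff.rfl

theorem preCore_normal (q : ℕ) : (preCore G q).Normal := Subgroup.Normal.comap inferInstance _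

theorem preCore_pow {q : ℕ} [Fact q.Prime] {y : G} (hy : y ∈ preCore G q) : ∃ e, y ^ q ^ e ∈ fittingSubgroup G := by
  obtain ⟨e, he⟩ := (pCore_isPGroup q (G := G ⧸ fittingSubgroup G)) ⟨_, mem_preCore.mp hy⟩
  refine ⟨e, ?_⟩
  have h1 : (y : G ⧸ fittingSubgroup G) ^ q ^ e = 1 := congrArg Subtype.val he
  rw [← QuotientGroup.mk_pow] at h1
  exact (QuotientGroup.eq_one_iff _).mp h1

theorem preCore_aut {q : ℕ} [Fact q.Prime] (σ : MulAut G) {y : G} (hy : y ∈ preCore G q) : σ y ∈ preCore G q := by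
  rw [mem_preCore]
  have h1 : ((σ y : G) : G ⧸ fittingSubgroup G) = barAut σ (y : G ⧸ fittingSubgroup G) := rfl
  rw [h1]
  exact map_mem_pCore (barAut σ) (mem_preCore.mp hy)

/-- The image of `preCore` lies in the `q`-core of a representation on which `F(G)` is trivial. -/
theorem image_mem_core (ι : G →* X) (φ : X →* MulAut G) (hιφ : ∀ x g, ι (φ x g) = x * ι g * x⁻¹) {q : ℕ}
    [Fact q.Prime] (N : Subgroup X) [N.Normal] (hι1 : ∀ f ∈ fittingSubgroup G, ι f ∈ N) {x' : G}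
    (hx' : x' ∈ preCore G q) : ((ι x' : X) : X ⧸ N) ∈ pCore q (X ⧸ N) := by
  let f : G →* X ⧸ N := (QuotientGroup.mk' N).comp ι
  have hfval : ∀ y, f y = ((ι y : X) : X ⧸ N) := fun _ => rfl
  have hNn : ((preCore G q).map f).Normal := by
    refine ⟨?_⟩
    rintro _ ⟨y, hy, rfl⟩ t
    obtain ⟨t, rfl⟩ := QuotientGroup.mk_surjective t
    refine ⟨φ t y, preCore_aut (φ t) hy, ?_⟩
    rw [hfval, hfval, hιφ]
    rfl
  have hNq : IsPGroup q ((preCore G q).map f) := by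
    rintro ⟨_, y, hy, rfl⟩
    obtain ⟨e', he'⟩ := preCore_pow hy
    refine ⟨e', Subtype.ext ?_⟩
    show (f y) ^ q ^ e' = 1
    rw [← map_pow, hfval]
    exact (QuotientGroup.eq_one_iff _).mpr (hι1 _ he')
  exact le_pCore hNn hNq ⟨x', hx', rfl⟩

/-- The commutator of a `q'`-element of the odd group and the preimage of `O_q(G / F(G))`. -/
theorem comm_mem_fitting (hsolX : Group.IsSolvable X) (ι : G →* X) (hι : Function.Injective ι) (φ : X →* MulAut G)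
    (hφι : ∀ f, φ (ι f) = MulAut.conj f) (hιφ : ∀ x g, ι (φ x g) = x * ι g * x⁻¹) (𝒜 : Set X)
    (hconj : ∀ g, ∀ b ∈ 𝒜, g * b * g⁻¹ ∈ 𝒜) {n : ℕ} (hn : 1 ≤ n) (hpow : ∀ b ∈ 𝒜, b ^ 2 ^ n = 1)
    (hfixb : ∀ b ∈ 𝒜, ∀ g, φ b g = g → g = 1) {q : ℕ} [hqf : Fact q.Prime] (hq2 : q ≠ 2) {w : G}
    (hwT : ι w ∈ oddN 𝒜 n) (hwc : (orderOf w).Coprime q) {x' : G} (hx' : x' ∈ preCore G q) :
    w * x' * w⁻¹ * x'⁻¹ ∈ fittingSubgroup G := by
  classical
  have hq : q.Prime := hqf.out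
  have hYn := preCore_normal (G := G) q
  have hcY : w * x' * w⁻¹ * x'⁻¹ ∈ preCore G q := mul_mem (hYn.conj_mem x' hx' w) (inv_mem hx')
  refine mem_fitting_of_frattini hq hYn (fun y hy => preCore_pow hy) hcY ?_
  intro s hs hsq u hu
  obtain ⟨Z, iZ, mZ, fZ, ψ, π, hψ, hker, hrel⟩ := exists_frattini_rep φ s
  have hunit : ∀ b ∈ 𝒜, IsUnit (π b - 1) := fun b hb => isUnit_of_fix hψ hrel (hfixb b hb)
  have hι1 : ∀ f ∈ fittingSubgroup G, ι f ∈ π.ker :=
    fun f hf => fitting_acts_trivially hψ hrel ι hφι hf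
  have hmem := image_mem_core ι φ hιφ π.ker hι1 hx'
  have hcop : (orderOf (ι w)).Coprime q := by
    rw [orderOf_injective ι hι]
    exact hwc
  have hU := theorem_u_quot hsolX (s := s) (q := q) (Ne.symm hsq) hq2 π 𝒜 hconj hn hpow hunit (ι w) hwT hcop
    (ι x') hmem
  have e1 : ι w * ι x' * (ι w)⁻¹ * (ι x')⁻¹ = ι (w * x' * w⁻¹ * x'⁻¹) := by
    simp only [map_mul, map_inv]
  rw [e1] at hU
  have h5 := mem_frattini_of_eq_one hker hrel hU ⟨u, hu⟩
  refine ⟨_, h5, ?_⟩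
  simp [resHom_coe, hφι, MulAut.conj_apply]
  group

/-- **The abstract form.** -/
theorem gross_core (hsolG : Group.IsSolvable G) (hsolX : Group.IsSolvable X) (hoddG : Odd (Nat.card G)) (ι : G →* X)
    (hι : Function.Injective ι) (φ : X →* MulAut G) (hφι : ∀ f, φ (ι f) = MulAut.conj f)
    (hιφ : ∀ x g, ι (φ x g) = x * ι g * x⁻¹) (a : X) {n : ℕ} (hn : 1 ≤ n) (ha : a ^ 2 ^ n = 1)
    (hfix : ∀ g, φ a g = g → g = 1) (g : G) :
    ((φ (a ^ 2 ^ (n - 1)) g * g⁻¹ : G) : G ⧸ fittingSubgroup G) ∈ fittingSubgroup (G ⧸ fittingSubgroup G) := by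
  classical
  let 𝒜 : Set X := {b | ∃ x, b = x * a * x⁻¹}
  have hconj : ∀ g, ∀ b ∈ 𝒜, g * b * g⁻¹ ∈ 𝒜 := by
    rintro g _ ⟨x, rfl⟩
    exact ⟨g * x, by group⟩
  have hpow : ∀ b ∈ 𝒜, b ^ 2 ^ n = 1 := by
    rintro _ ⟨x, rfl⟩
    rw [conj_pow, ha]
    simp
  have hfixb : ∀ b ∈ 𝒜, ∀ g, φ b g = g → g = 1 := by
    rintro _ ⟨x, rfl⟩ g hg
    have h1 : φ a ((φ x)⁻¹ g) = (φ x)⁻¹ g := by
      have e : φ (x * a * x⁻¹) g = φ x (φ a ((φ x)⁻¹ g)) := by
        rw [map_mul, map_mul, map_inv]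
        rfl
      rw [e] at hg
      nth_rewrite 2 [← hg]
      simp
    have h2 := hfix _ h1
    have h3 : φ x ((φ x)⁻¹ g) = g := by simp
    rw [← h3, h2, map_one]
  have hTn : (oddN 𝒜 n).Normal := ⟨fun y hy g => oddN_conj hconj n g hy⟩
  haveI hTGn : ((oddN 𝒜 n).comap ι).Normal := hTn.comap ι
  have hTHn : (((oddN 𝒜 n).comap ι).map (QuotientGroup.mk' (fittingSubgroup G))).Normal :=
    hTGn.map _ (QuotientGroup.mk'_surjective _)
  have hcardH : Nat.card (G ⧸ fittingSubgroup G) ∣ Nat.card G := Subgroup.card_quotient_dvd_card _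
  have hA : ∀ q : ℕ, q.Prime → ∀ z ∈ ((oddN 𝒜 n).comap ι).map (QuotientGroup.mk' (fittingSubgroup G)),
      (orderOf z).Coprime q → ∀ x ∈ pCore q (G ⧸ fittingSubgroup G), z * x * z⁻¹ = x := by
    intro q hq z hz hzc x hx
    haveI : Fact q.Prime := ⟨hq⟩
    by_cases hq2 : q = 2
    · rw [hq2] at hx hq
      haveI : Fact (Nat.Prime 2) := ⟨hq⟩
      obtain ⟨e, he⟩ := Cfsg.Agent.Lib.Basic.SylowUtil.orderOf_eq_pow_of_isPGroup (pCore_isPGroup 2) hx
      have h1 : orderOf x ∣ Nat.card G := (orderOf_dvd_natCard x).trans hcardH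
      have h2 : e = 0 := by
        by_contra he0
        rw [he] at h1
        have h3 : 2 ∣ Nat.card G := (dvd_pow_self 2 he0).trans h1
        exact (Nat.not_even_iff_odd.mpr hoddG) (even_iff_two_dvd.mpr h3)
      rw [h2, pow_zero] at he
      rw [orderOf_eq_one_iff.mp he]
      simp
    obtain ⟨z₀, hz₀, rfl⟩ := hz
    obtain ⟨e, m, hm, hord⟩ := Nat.exists_eq_pow_mul_and_not_dvd (n := orderOf z₀) (orderOf_pos z₀).ne' q hq.ne_one
    have hwm : (z₀ ^ q ^ e) ^ m = 1 := by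
      rw [← pow_mul, ← hord]
      exact pow_orderOf_eq_one z₀
    have hwc : (orderOf (z₀ ^ q ^ e)).Coprime q := by
      refine Nat.Coprime.coprime_dvd_left (orderOf_dvd_of_pow_eq_one hwm) ?_
      exact Nat.Coprime.symm ((Nat.Prime.coprime_iff_not_dvd hq).mpr hm)
    have hwT : z₀ ^ q ^ e ∈ (oddN 𝒜 n).comap ι := pow_mem hz₀ _
    obtain ⟨x', rfl⟩ := QuotientGroup.mk_surjective x
    have hx'Y : x' ∈ preCore G q := hx
    have hcl := comm_mem_fitting hsolX ι hι φ hφι hιφ 𝒜 hconj hn hpow hfixb hq2 hwT hwc hx'Y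
    have hS : ((z₀ : G ⧸ fittingSubgroup G)) ∈ Subgroup.centralizer ({(x' : G ⧸ fittingSubgroup G)} : Set (G ⧸ fittingSubgroup G)) := by
      have h1 : ((z₀ : G ⧸ fittingSubgroup G)) ^ orderOf ((z₀ : G ⧸ fittingSubgroup G)) = 1 := pow_orderOf_eq_one _
      refine Cfsg.Agent.Lib.Ward.mem_of_pow_mem (m := q ^ e) h1 ?_ ?_
      · rw [Subgroup.mem_centralizer_singleton_iff, ← QuotientGroup.mk_pow]
        have h2 := (QuotientGroup.eq_one_iff _).mpr hcl
        simp only [QuotientGroup.mk_mul, QuotientGroup.mk_inv] at h2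
        have h3 := mul_inv_eq_one.mp h2
        have h4 := mul_inv_eq_iff_eq_mul.mp h3
        exact h4
      · exact Nat.Coprime.pow_left _ hzc.symm
    rw [Subgroup.mem_centralizer_singleton_iff] at hS
    show (z₀ : G ⧸ fittingSubgroup G) * (x' : G ⧸ fittingSubgroup G) * (z₀ : G ⧸ fittingSubgroup G)⁻¹ = x'
    rw [hS, mul_inv_cancel_right]
  have hle := le_fitting_of_centralizing (inferInstance) _ hTHn hA
  apply hle
  refine ⟨_, ?_, rfl⟩
  -- the commutator lies in the group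
  have hyL : a ^ 2 ^ (n - 1) ∈ lastN 𝒜 n := Subgroup.subset_closure ⟨a, ⟨1, by simp⟩, rfl⟩
  have hcL : ι (φ (a ^ 2 ^ (n - 1)) g * g⁻¹) ∈ lastN 𝒜 n := by
    have e : ι (φ (a ^ 2 ^ (n - 1)) g * g⁻¹) = a ^ 2 ^ (n - 1) * (ι g * (a ^ 2 ^ (n - 1))⁻¹ * (ι g)⁻¹) := by
      rw [map_mul, hιφ, map_inv]
      group
    rw [e]
    exact mul_mem hyL (lastN_conj hconj n _ (inv_mem hyL))
  have hcO : Odd (orderOf (ι (φ (a ^ 2 ^ (n - 1)) g * g⁻¹))) := by
    rw [orderOf_injective ι hι]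
    exact Odd.of_dvd_nat hoddG (orderOf_dvd_natCard _)
  exact Subgroup.subset_closure ⟨hcL, hcO⟩

end Cfsg.Agent.Lib.Gross.FpfMain
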