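import Mathlib
import Cfsg.Agent.Lib.Camina.GH4
import Cfsg.Agent.Lib.Components.Fitting

/-!
# Gorenstein-Herstein: the structure of a group with a fixed point free automorphism with `σ ^ 4 = 1`

We record the nilpotent normal subgroup with abelian quotient which the proof of `isSolvable_of_fpf_four`
constructs.
-/

set_option autoImplicit false
set_option linter.style.haveILetI false
set_option linter.unusedSectionVars false
set_option linter.deprecated false

namespace Cfsg.Agent.Lib.Gross.GHBase

open Cfsg.Agent.Lib.Camina.GH4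

universe u

variable {V : Type u} [Group V] [Finite V]

/-- **Gorenstein-Herstein**: a fixed point free automorphism `σ` with `σ ^ 4 = 1`: the structure. -/
theorem exists_nilpotent_normal (σ : V ≃* V) (hσ : ∀ x, σ x = x → x = 1) (h4 : ∀ x, σ (σ (σ (σ x))) = x) :
    ∃ B : Subgroup V, B.Normal ∧ Group.IsNilpotent B ∧ ∀ x y : V, x * y * x⁻¹ * y⁻¹ ∈ B := by
  classical
  by_cases hne : (Nat.card V).primeFactors.Nonempty
  swap
  · have h1 : Nat.card V = 1 := by
      by_contra h
      obtain ⟨p, hp, hdvd⟩ := Nat.exists_prime_and_dvd h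
      exact hne ⟨p, Nat.mem_primeFactors.2 ⟨hp, hdvd, Nat.card_pos.ne'⟩⟩
    haveI : Subsingleton V := (Nat.card_eq_one_iff_unique.1 h1).1
    refine ⟨⊤, inferInstance, ?_, fun x y => Subgroup.mem_top _⟩
    haveI : IsPGroup 2 (⊤ : Subgroup V) := fun x => ⟨0, Subsingleton.elim _ _⟩
    haveI : Fact (Nat.Prime 2) := ⟨Nat.prime_two⟩
    exact IsPGroup.isNilpotent ‹_›
  obtain ⟨e, he1, he2⟩ := exists_exponents hne
  set π := (Nat.card V).primeFactors with hπ
  have hprime : ∀ q : π, (q : ℕ).Prime := fun q => Nat.prime_of_mem_primeFactors q.2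
  have hdec : ∀ x : V, (π.toList.map fun q => x ^ e q).prod = x := by
    intro x
    rw [list_prod_zpow]
    have : (π.toList.map e).sum = ∑ q ∈ π, e q := Finset.sum_map_toList _ _
    rw [this, he1, zpow_one]
  -- the map to the product
  let F : II σ → ∀ q : π, Iq σ (q : ℕ) := fun x q =>
    ⟨x.1 ^ e q, inverted_zpow σ hσ h4 x.2 _, ⟨_, he2 q q.2 x.1⟩⟩
  have hFinj : Function.Injective F := by
    intro x y hxy
    apply Subtype.ext
    rw [← hdec x.1, ← hdec y.1]
    congr 1
    apply List.map_congr_left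
    intro q hq
    have hq' : q ∈ π := Finset.mem_toList.1 hq
    have := congrFun hxy ⟨q, hq'⟩
    exact congrArg Subtype.val this
  have hFcard : Nat.card (II σ) = Nat.card (∀ q : π, Iq σ (q : ℕ)) := by
    rw [Nat.card_pi]
    have h1 : ∀ q : π, Nat.card (Iq σ (q : ℕ)) = (q : ℕ) ^ (Nat.card (II σ)).factorization q :=
      fun q => card_Iq σ hσ h4 (hprime q)
    simp only [h1]
    rw [Finset.prod_coe_sort π (fun q => q ^ (Nat.card (II σ)).factorization q)]
    haveI : Nonempty (II σ) := ⟨⟨1, by simp⟩⟩
    have h2 : Nat.card (II σ) ≠ 0 := Nat.card_pos.ne'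
    have hsub : (Nat.card (II σ)).primeFactors ⊆ π := by
      apply Nat.primeFactors_mono
      · rw [card_eq_mul_II σ hσ h4]
        exact Dvd.intro_left _ rfl
      · exact Nat.card_pos.ne'
    rw [← Finset.prod_subset hsub]
    · have := Nat.factorization_prod_pow_eq_self h2
      rw [Finsupp.prod, Nat.support_factorization] at this
      exact this.symm
    · intro q _ hq
      have : (Nat.card (II σ)).factorization q = 0 := by
        rw [← Finsupp.notMem_support_iff, Nat.support_factorization]
        exact hq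
      rw [this, pow_zero]
  have hFbij : Function.Bijective F := (Nat.bijective_iff_injective_and_card F).2 ⟨hFinj, hFcard⟩
  -- commuting of different primes
  have hcomm : ∀ q r : π, q ≠ r → ∀ (u : Iq σ (q : ℕ)) (v : Iq σ (r : ℕ)), Commute u.1 v.1 := by
    intro q r hqr u v
    let f : ∀ q : π, Iq σ (q : ℕ) :=
      Function.update (Function.update (fun q => ⟨1, by simp, 0, by simp⟩) q u) r v
    obtain ⟨x, hx⟩ := hFbij.2 f
    have h1 : x.1 ^ e q = u.1 := by
      have := congrFun hx q
      have h2 : f q = u := by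
        simp only [f]
        rw [Function.update_of_ne hqr, Function.update_self]
      rw [h2] at this
      exact congrArg Subtype.val this
    have h3 : x.1 ^ e r = v.1 := by
      have := congrFun hx r
      have h2 : f r = v := by
        simp only [f]
        rw [Function.update_self]
      rw [h2] at this
      exact congrArg Subtype.val this
    rw [← h1, ← h3]
    exact (Commute.refl x.1).zpow_zpow _ _
  -- the subgroups generated
  let H : π → Subgroup V := fun q =>
    Subgroup.closure {y : V | σ (σ y) = y⁻¹ ∧ ∃ k : ℕ, y ^ ((q : ℕ) ^ k) = 1}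
  have hHcomm : Pairwise fun i j => ∀ x y : V, x ∈ H i → y ∈ H j → Commute x y := by
    intro i j hij x y hx hy
    have h1 : H i ≤ Subgroup.centralizer (H j : Set V) := by
      rw [Subgroup.closure_le]
      intro u hu
      rw [SetLike.mem_coe, Subgroup.mem_centralizer_iff]
      intro w hw
      have h2 : H j ≤ Subgroup.centralizer ({u} : Set V) := by
        rw [Subgroup.closure_le]
        intro v hv
        rw [SetLike.mem_coe, Subgroup.mem_centralizer_singleton_iff]
        exact (hcomm i j hij ⟨u, hu⟩ ⟨v, hv⟩).symm.eq.symm ▸ rfl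
      exact (Subgroup.mem_centralizer_singleton_iff.1 (h2 hw)).symm ▸ rfl
    exact (Subgroup.mem_centralizer_iff.1 (h1 hx) y hy).symm
  -- each is a `q`-group
  have hHq : ∀ q : π, IsPGroup (q : ℕ) (H q) := by
    intro q
    haveI : Fact (q : ℕ).Prime := ⟨hprime q⟩
    obtain ⟨P, hP⟩ := Cfsg.Agent.S0031.result σ (fun x hx => hσ x hx) (q : ℕ)
    have hPσ : ∀ x ∈ (P : Subgroup V), σ x ∈ (P : Subgroup V) := by
      intro x hx
      rw [← hP]
      exact ⟨x, hx, rfl⟩
    refine P.isPGroup'.to_le ?_
    rw [Subgroup.closure_le]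
    rintro y ⟨hy, k, hk⟩
    exact mem_of_inverted σ hσ h4 P hPσ hy hk
  haveI hHnil : ∀ q : π, Group.IsNilpotent (H q) := fun q => by
    haveI : Fact (q : ℕ).Prime := ⟨hprime q⟩
    exact (hHq q).isNilpotent
  have hHsup : ∀ q : π, H q ≤ ⨆ i, H i := fun q => le_iSup H q
  -- the closure of `I`
  set B : Subgroup V := Subgroup.closure {y : V | σ (σ y) = y⁻¹} with hB
  have hBle : B ≤ ⨆ i, H i := by
    rw [Subgroup.closure_le]
    intro y hy
    have hy' : σ (σ y) = y⁻¹ := hy
    rw [SetLike.mem_coe, ← hdec y]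
    apply Subgroup.list_prod_mem
    intro z hz
    obtain ⟨q, hq, rfl⟩ := List.mem_map.1 hz
    have hq' : q ∈ π := Finset.mem_toList.1 hq
    exact hHsup ⟨q, hq'⟩ (Subgroup.subset_closure
      ⟨inverted_zpow σ hσ h4 hy' _, _, he2 q hq' y⟩)
  have hBnil : Group.IsNilpotent B := by
    let N := Subgroup.noncommPiCoprod hHcomm
    have hr : N.range = ⨆ i, H i := Subgroup.noncommPiCoprod_range
    haveI : Group.IsNilpotent (∀ i, H i) := inferInstance
    haveI hrn : Group.IsNilpotent N.range :=
      Group.nilpotent_of_surjective (f := N.rangeRestrict) N.rangeRestrict_surjective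
    exact Cfsg.Agent.Lib.Components.Fitting.isNilpotent_of_le (hBle.trans hr.symm.le) hrn
  -- factorisation of elements
  have hodd := odd_card σ hσ h4
  have hfac : ∀ v : V, ∃ a ∈ fixA σ, ∃ z, σ (σ z) = z⁻¹ ∧ v = a * z := by
    intro v
    obtain ⟨a, ha, z, -, hz, rfl⟩ := exists_factor_of_mem σ h4 (⊤ : Subgroup V)
      (fun _ _ => Subgroup.mem_top _) (by rw [Subgroup.card_top]; exact hodd) (Subgroup.mem_top v)
    exact ⟨a, ha.2, z, hz, rfl⟩
  -- normality
  have hBn : B.Normal := by
    have hA : ∀ a ∈ fixA σ, a ∈ Subgroup.normalizer (B : Set V) := by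
      intro a ha
      apply mem_normalizer_of_forall
      have hle : B ≤ B.comap (MulAut.conj a).toMonoidHom := by
        rw [Subgroup.closure_le]
        intro y hy
        have hy' : σ (σ y) = y⁻¹ := hy
        have ha' : σ (σ a) = a := ha
        refine Subgroup.subset_closure ?_
        show σ (σ (a * y * a⁻¹)) = (a * y * a⁻¹)⁻¹
        simp only [map_mul, map_inv, ha', hy']
        group
      exact fun x hx => hle hx
    have hN : Subgroup.normalizer (B : Set V) = ⊤ := by
      rw [eq_top_iff]
      intro v _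
      obtain ⟨a, ha, z, hz, rfl⟩ := hfac v
      exact Subgroup.mul_mem _ (hA a ha) (Subgroup.le_normalizer (Subgroup.subset_closure hz))
    exact Subgroup.normalizer_eq_top_iff.1 hN
  refine ⟨B, hBn, hBnil, ?_⟩
  intro x y
  -- write `x = a z`, `y = b w` with `a, b` commuting and `z, w ∈ B`
  haveI := hBn
  have hcomm : ∀ u v : V ⧸ B, u * v = v * u := by
    intro u v
    obtain ⟨x, rfl⟩ := QuotientGroup.mk_surjective u
    obtain ⟨y, rfl⟩ := QuotientGroup.mk_surjective v
    obtain ⟨a, ha, z, hz, rfl⟩ := hfac x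
    obtain ⟨b, hb, w, hw, rfl⟩ := hfac y
    have hz1 : ((z : V) : V ⧸ B) = 1 := (QuotientGroup.eq_one_iff _).mpr (Subgroup.subset_closure hz)
    have hw1 : ((w : V) : V ⧸ B) = 1 := (QuotientGroup.eq_one_iff _).mpr (Subgroup.subset_closure hw)
    simp only [QuotientGroup.mk_mul, hz1, hw1, mul_one]
    rw [← QuotientGroup.mk_mul, ← QuotientGroup.mk_mul, comm_fixA σ hσ h4 ha hb]
  have h1 : ((x * y * x⁻¹ * y⁻¹ : V) : V ⧸ B) = 1 := by
    simp only [QuotientGroup.mk_mul, QuotientGroup.mk_inv]
    rw [hcomm (x : V ⧸ B) y]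
    group
  exact (QuotientGroup.eq_one_iff _).mp h1

end Cfsg.Agent.Lib.Gross.GHBase
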