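import Mathlib
import Cfsg.Agent.Lib.Gross.FpfMain
import Cfsg.Agent.Lib.Gross.GHBase

/-!
# Gross's theorem on the Fitting height of a group with a fixed point free automorphism of order `2 ^ n`
-/

set_option autoImplicit false
set_option linter.unusedSectionVars false
set_option linter.style.haveILetI false

namespace Cfsg.Agent.Lib.Gross.FpfTop

open Cfsg Cfsg.Agent.Lib.Basic.PCore Cfsg.Agent.Lib.ShultGross SemidirectProduct Cfsg.Agent.Lib.Gross.FpfMain

universe u

variable {G : Type u} [Group G] [Finite G]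

/-- The semidirect product of `G` with the cyclic group generated by an automorphism. -/
abbrev Hol (σ : MulAut G) := G ⋊[(Subgroup.zpowers σ).subtype] ↥(Subgroup.zpowers σ)

/-- The action of the semidirect product on `G`. -/
noncomputable def holAct (σ : MulAut G) : Hol σ →* MulAut G :=
  SemidirectProduct.lift MulAut.conj (Subgroup.zpowers σ).subtype (by
    intro t
    ext n m
    simp [MulAut.conj_apply, MulAut.mul_apply])

theorem holAct_inl (σ : MulAut G) (f : G) : holAct σ (inl f) = MulAut.conj f := by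
  simp [holAct]

theorem holAct_inr (σ : MulAut G) (t : Subgroup.zpowers σ) : holAct σ (inr t) = t := by
  simp [holAct]

theorem holAct_conj (σ : MulAut G) (x : Hol σ) (g : G) : (inl (holAct σ x g) : Hol σ) = x * inl g * x⁻¹ := by
  obtain ⟨n, t, rfl⟩ : ∃ (n : G) (t : Subgroup.zpowers σ), x = inl n * inr t :=
    ⟨x.left, x.right, (inl_left_mul_inr_right x).symm⟩
  have h1 : holAct σ (inl n * inr t) g = n * ((t : MulAut G) g) * n⁻¹ := by
    rw [map_mul, holAct_inl, holAct_inr]
    simp [MulAut.mul_apply, MulAut.conj_apply]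
  rw [h1]
  have h2 : (inl ((t : MulAut G) g) : Hol σ) = inr t * inl g * (inr t)⁻¹ := by
    have := inl_aut (φ := (Subgroup.zpowers σ).subtype) t g
    rw [← map_inv]
    exact this
  calc (inl (n * ((t : MulAut G) g) * n⁻¹) : Hol σ) = inl n * inl ((t : MulAut G) g) * (inl n)⁻¹ := by
        simp only [map_mul, map_inv]
    _ = inl n * (inr t * inl g * (inr t)⁻¹) * (inl n)⁻¹ := by rw [h2]
    _ = (inl n * inr t) * inl g * (inl n * inr t)⁻¹ := by group

/-- **The last power of `σ` acts trivially modulo `F_2(G)`.** -/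
theorem gross_last (hG : Group.IsSolvable G) (σ : MulAut G) {n : ℕ} (hn : 1 ≤ n) (hσ : σ ^ 2 ^ n = 1)
    (hfpf : ∀ g : G, σ g = g → g = 1) (g : G) :
    (((σ ^ 2 ^ (n - 1)) g * g⁻¹ : G) : G ⧸ fittingSubgroup G) ∈ fittingSubgroup (G ⧸ fittingSubgroup G) := by
  classical
  haveI hfinX : Finite (Hol σ) := Finite.of_equiv _ (equivProd (N := G) (G := Subgroup.zpowers σ)
    (φ := (Subgroup.zpowers σ).subtype)).symm
  haveI hsolZ : Group.IsSolvable (Subgroup.zpowers σ) := Group.isSolvable_of_comm (fun a b => by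
    obtain ⟨k, hk⟩ := a.2
    obtain ⟨l, hl⟩ := b.2
    apply Subtype.ext
    show (a : MulAut G) * b = b * a
    rw [← hk, ← hl]
    exact zpow_mul_comm σ k l)
  have hsolX : Group.IsSolvable (Hol σ) := Group.isSolvable_of_ker_le_range
    (inl : G →* Hol σ) (rightHom : Hol σ →* Subgroup.zpowers σ) range_inl_eq_ker_rightHom.symm.le
  have hodd : Odd (Nat.card G) := by
    have h1 := not_dvd_card_of_fpf Nat.prime_two σ hσ hfpf
    exact Nat.odd_iff.mpr (by omega)
  let s : Subgroup.zpowers σ := ⟨σ, Subgroup.mem_zpowers σ⟩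
  let a : Hol σ := inr s
  have ha1 : holAct σ a = σ := holAct_inr σ s
  have hapow : a ^ 2 ^ n = 1 := by
    have : s ^ 2 ^ n = 1 := by
      apply Subtype.ext
      exact hσ
    show (inr s : Hol σ) ^ 2 ^ n = 1
    rw [← map_pow, this, map_one]
  have hfix : ∀ g, holAct σ a g = g → g = 1 := by
    intro g hg
    rw [ha1] at hg
    exact hfpf g hg
  have h := gross_core hG hsolX hodd (inl : G →* Hol σ) inl_injective (holAct σ) (holAct_inl σ) (holAct_conj σ) a hn
    hapow hfix g
  rw [map_pow, ha1] at h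
  exact h

/-- A nilpotent group has a chain of length one. -/
theorem fitChain_of_nilpotent {H : Type u} [Group H] (hn : Group.IsNilpotent H) : FitChain H 1 := by
  have hz : FitChain (H ⧸ (⊤ : Subgroup H)) 0 := by
    refine ⟨fun _ => ⊥, rfl, ?_, fun _ _ _ => le_rfl, fun _ => inferInstance, fun i => i.elim0⟩
    haveI : Subsingleton (H ⧸ (⊤ : Subgroup H)) := QuotientGroup.subsingleton_quotient_top
    exact Subsingleton.elim _ _
  refine FitChain.lift (QuotientGroup.mk' (⊤ : Subgroup H)) (QuotientGroup.mk'_surjective _) ?_ hz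
  rw [QuotientGroup.ker_mk']
  exact Group.isNilpotent_top.mpr hn

/-- The base case: `σ ^ 4 = 1`. -/
theorem fitChain_base (σ : MulAut G) (h4 : σ ^ 2 ^ 2 = 1) (hfpf : ∀ g : G, σ g = g → g = 1) : FitChain G 2 := by
  have h4' : ∀ x, σ (σ (σ (σ x))) = x := by
    intro x
    have h1 : (σ ^ 2 ^ 2) x = x := by rw [h4]; rfl
    have e : σ ^ 2 ^ 2 = σ * σ * σ * σ := by
      norm_num [pow_succ]
    rw [e] at h1
    exact h1
  obtain ⟨B, hBn, hBnil, hB⟩ := Cfsg.Agent.Lib.Gross.GHBase.exists_nilpotent_normal σ hfpf h4'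
  haveI := hBn
  have hcm : ∀ a b : G ⧸ B, a * b = b * a := by
    intro a b
    obtain ⟨x, rfl⟩ := QuotientGroup.mk_surjective a
    obtain ⟨y, rfl⟩ := QuotientGroup.mk_surjective b
    rw [← QuotientGroup.mk_mul, ← QuotientGroup.mk_mul, QuotientGroup.eq]
    have h := hB y⁻¹ x⁻¹
    simpa [mul_assoc] using h
  have hnil : Group.IsNilpotent (G ⧸ B) := by
    letI : CommGroup (G ⧸ B) := { (inferInstance : Group (G ⧸ B)) with mul_comm := hcm }
    infer_instance
  refine FitChain.lift (QuotientGroup.mk' B) (QuotientGroup.mk'_surjective _) ?_ (fitChain_of_nilpotent hnil)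
  rw [QuotientGroup.ker_mk']
  exact hBnil

/-- The automorphism induced on `G / F_2(G)` has a smaller order. -/
theorem barAut_barAut_pow (hG : Group.IsSolvable G) (σ : MulAut G) {n : ℕ} (hσ : σ ^ 2 ^ (n + 1) = 1)
    (hfpf : ∀ g : G, σ g = g → g = 1) : barAut (barAut σ) ^ 2 ^ n = 1 := by
  ext x
  obtain ⟨x₁, rfl⟩ := QuotientGroup.mk_surjective x
  obtain ⟨g, rfl⟩ := QuotientGroup.mk_surjective x₁
  rw [barAut_pow_mk, barAut_pow_mk]
  have h := gross_last hG σ (n := n + 1) (by omega) hσ hfpf g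
  simp only [Nat.add_sub_cancel] at h
  show _ = _
  rw [MulAut.one_apply]
  have h3 := (QuotientGroup.eq_one_iff _).mpr h
  rw [QuotientGroup.mk_mul, QuotientGroup.mk_mul, QuotientGroup.mk_inv, QuotientGroup.mk_inv] at h3
  exact mul_inv_eq_one.mp h3

/-- **Gross's theorem.** -/
theorem fitChain_two : ∀ (n : ℕ) (G : Type u) [Group G] [Finite G], Group.IsSolvable G → ∀ σ : MulAut G,
    σ ^ 2 ^ (n + 2) = 1 → (∀ g : G, σ g = g → g = 1) → FitChain G (2 * n + 2) := by
  intro n
  induction n with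
  | zero =>
    intro G _ _ _ σ hσ hfpf
    exact fitChain_base σ hσ hfpf
  | succ n ih =>
    intro G _ _ hG σ hσ hfpf
    have e : 2 * (n + 1) + 2 = (2 * n + 2) + 1 + 1 := by ring
    rw [e]
    have hsol₁ : Group.IsSolvable (G ⧸ fittingSubgroup G) := inferInstance
    have hsol₂ : Group.IsSolvable ((G ⧸ fittingSubgroup G) ⧸ fittingSubgroup (G ⧸ fittingSubgroup G)) := inferInstance
    have h1 := barAut_barAut_pow hG σ (n := n + 2) hσ hfpf
    have h2 := barAut_fpf (barAut σ) (barAut_fpf σ hfpf)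
    have h3 := ih _ hsol₂ (barAut (barAut σ)) h1 h2
    have h4 : FitChain (G ⧸ fittingSubgroup G) (2 * n + 2 + 1) := by
      refine FitChain.lift (QuotientGroup.mk' (fittingSubgroup (G ⧸ fittingSubgroup G)))
        (QuotientGroup.mk'_surjective _) ?_ h3
      rw [QuotientGroup.ker_mk']
      exact fittingSubgroup_isNilpotent
    refine FitChain.lift (QuotientGroup.mk' (fittingSubgroup G)) (QuotientGroup.mk'_surjective _) ?_ h4
    rw [QuotientGroup.ker_mk']
    exact fittingSubgroup_isNilpotent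

end Cfsg.Agent.Lib.Gross.FpfTop
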